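import Mathlib

set_option autoImplicit false
set_option maxRecDepth 100000

namespace Cfsg.Agent.Lib.Helper11.WG2a

noncomputable def fc0_0 (i : ℕ) : ℕ := (nat_lit 0x50000a10000050000a10000000000010000000000010000040000a2000005000082000003000081000004000061000002000062000003000042000001000041000002000021000000000022000001000002)
noncomputable def sc0_0 (i : ℕ) : ℕ := (nat_lit 0x300000500000700000900000b00000100000a000008000006000004000002000b00010000fffe0000ffff0000ffff0000ffff0000ffff0000ffff)
noncomputable def nc0_0 (i : ℕ) : ℕ := (nat_lit 0x5000004000003000002000001000000)
noncomputable def cc0_0 (i : ℕ) : ℕ := (nat_lit 0x400000800000500000c00000500000900000300000600000200000400000400000700000300000500000100000200000000000000000200000300000100000100000000000a)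

end Cfsg.Agent.Lib.Helper11.WG2a
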