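import Cfsg.Agent.Lib.Helper11.WG2a.Top

set_option autoImplicit false
set_option maxRecDepth 100000

namespace Cfsg.Agent.Lib.Helper11.WG2a

set_option maxHeartbeats 0
theorem b0 : allR (guardB 1 (blk fc sc rt.get INV isH)) 0 0 = true := by decide +kernel
theorem c0 : allR (guardB 1 (cblk fc nc cc 256 6 79228162514264337593543950336 gens)) 0 0 = true := by decide +kernel

end Cfsg.Agent.Lib.Helper11.WG2a
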