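import Cfsg.Agent.Lib.Helper11.WG2a.D0
import Cfsg.Agent.Lib.Helper11.Words

set_option autoImplicit false
set_option maxRecDepth 100000

namespace Cfsg.Agent.Lib.Helper11.WG2a

noncomputable def fc (i : ℕ) : ℕ := fc0_0 i
noncomputable def sc (i : ℕ) : ℕ := sc0_0 i
noncomputable def nc (i : ℕ) : ℕ := nc0_0 i
noncomputable def cc (i : ℕ) : ℕ := cc0_0 i

noncomputable def INV : ℕ := 2080
def isH (l : ℕ) : Bool := decide (l ∈ [1])
def gens : List ℕ := [1, 2]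
def rt : RT := (.node 1 (.leaf 0 0 []) (.leaf 4 0 [1, 2, 1, 2, 1, 2, 1, 2, 1, 2, 1, 2]))


end Cfsg.Agent.Lib.Helper11.WG2a
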